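import Cfsg.Agent.H203.TW.MapInst
import Cfsg.Agent.H564.TW.Main
import Cfsg.Agent.H421.TW.Sys
import Cfsg.Agent.H925.TW.Tor

/-!
# Own characteristic of `²F₄(q)` (S3635, section (O)), final assembly

`fixAll_2F4` : elements of odd order of `²F₄(q)`, `q = 2 ^ (2 m + 1)`, `m ≥ 1`, have nonzero fixed vectors in all nonzero
finite modules over `F₂`.
-/

set_option autoImplicit false
set_option linter.unusedSectionVars false

namespace Cfsg.Agent.H203.TW

open Cfsg Cfsg.Lie Cfsg.Agent.H45.UniE Cfsg.Agent.H405.UE Cfsg.Agent.H421.UniE Cfsg.Agent.H564.TW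
open Cfsg.Agent.Nodes.RGDChev
open Cfsg.Agent.ChevalleyStructure.TwF4.TwistedFix (Rln exists_rln)
open Cfsg.Agent.KFacts.TwF4.Inst (full)

universe u v

section wt

variable {K : Type*} [Field K] [Fintype K] [CharP K 2] {φ : K →+* K} {m : ℕ}
  (hK : Fintype.card K = 2 ^ (2 * m + 1)) (hφ : Rln φ (2 ^ m))

theorem wtT {k : Type*} [Field k] [IsAlgClosed k] [CharP k 2] {W : Type*} [AddCommGroup W] [Module k W] :
    (sysT hK hφ).Wt k W := by
  intro ρ h1 h2
  obtain ⟨v, hv0, hU, hH, hT⟩ := Cfsg.Agent.H421.TW.wt (full hK hφ) (k := k) (W := W) ρ h1 h2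
  refine ⟨v, hv0, hU, hH, Fin.forall_fin_two.2 ⟨?_, ?_⟩⟩
  · obtain ⟨μ, hμ⟩ := hT true
    exact ⟨μ, hμ⟩
  · obtain ⟨μ, hμ⟩ := hT false
    exact ⟨μ, hμ⟩

end wt

theorem zi_simple (k : Type*) [Field k] (i : Fin 4) : ((gdat Nodes.KindF.isType k).zi i).1 = chevF4.simple (i : ℕ) := rfl

theorem qF_tab (m : ℕ) (i : Fin 4) (b : PR chevF4) (hb : b.1 = chevF4.simple (i : ℕ)) :
    qF m b = if i = 0 ∨ i = 1 then 2 ^ (m + 1) else 2 ^ m := by
  unfold qF
  rw [hb]
  have h : ∀ i : Fin 4, chevF4.isLong (chevF4.simple (i : ℕ)) = true ↔ ¬ (i = 0 ∨ i = 1) := by decide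
  by_cases h1 : i = 0 ∨ i = 1
  · rw [if_pos h1, if_neg (fun h2 => (h i).1 h2 h1)]
  · rw [if_neg h1, if_pos ((h i).2 h1)]

/-- **own characteristic of `²F₄(q)`** -/
theorem fixAll_2F4 {K : Type v} [Field K] [Fintype K] {m : ℕ} (hm : 1 ≤ m) (hK : Fintype.card K = 2 ^ (2 * m + 1))
    (x : ↥(twistedF4 K (2 ^ m))) (hx : Odd (orderOf x)) : H425.KFix.FixAll.{u} 2 x := by
  have hc : CharP K 2 := Cfsg.Agent.ChevalleyStructure.TwF4.Twisted.charP_two hK
  obtain ⟨φ, hφ⟩ := exists_rln hK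
  let k := AlgebraicClosure K
  have hck : CharP k 2 := charP_of_injective_algebraMap (algebraMap K k).injective 2
  obtain ⟨A, hA, ⟨V⟩, hcm⟩ := exists_fdat_F4 k
  obtain ⟨g, t, ht, hg⟩ := Cfsg.Agent.H925.TW.conj_TT_F4 (tw K k (2 ^ m)) x hx
  have hq0 : ∀ b, 0 < qF m b := qF_pos m
  have hyp : Hyp (sysT hK hφ) A (tw K k (2 ^ m)) orbF (expF m) (qF m) :=
    { map := map_tw hK hφ hA
      Up := isPGroup_U hK hφ
      Um := isPGroup_Um hK hφ
      qq_pos := hq0
      cmq := hcm m
      low := fun l hl f hf h1 n hlow => low_tw_F4 hK hφ hA hm (datQ A (qF m) l hl hq0 (hcm m)) hA rfl f hf h1 n hlow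
      lam := by
        intro a ha
        obtain ⟨l, ⟨l0, l1, l2, l3⟩, e0, e1⟩ := exists_lam (m := m) a (fun j => by rw [← hK]; exact ha j)
        refine ⟨l, ?_, ?_⟩
        · intro i
          have h1 : (A.zi i).1 = chevF4.simple (i : ℕ) := by
            show (A.toGDat.zi i).1 = _
            rw [hA]
            rfl
          rw [qF_tab m i _ h1]
          fin_cases i
          · exact l0
          · exact l1
          · exact l2
          · exact l3
        · intro j
          unfold Cfsg.Agent.H564.TW.TSys.wt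
          revert j
          refine Fin.forall_fin_two.2 ⟨?_, ?_⟩
          · have h2 : (Finset.univ.filter fun i => orbF i = 0) = {0, 3} := by decide
            rw [e0, h2, Finset.sum_pair (by decide)]
            show 2 ^ m * l 0 + 1 * l 3 = _
            rw [one_mul]
          · have h2 : (Finset.univ.filter fun i => orbF i = 1) = {1, 2} := by decide
            rw [e1, h2, Finset.sum_pair (by decide)]
            show 2 ^ m * l 1 + 1 * l 2 = _
            rw [one_mul] }
  exact fixAll_tw hyp (fun W _ _ => wtT hK hφ) V x (Nat.coprime_two_right.2 hx) ht hg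

end Cfsg.Agent.H203.TW
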