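import Cfsg.Agent.H203.TW.Map
import Cfsg.Agent.KFacts.TwF4.Inv
import Cfsg.Agent.ChevalleyStructure.TwF4.TorusFix

/-!
# `²F₄(q)` as a `TSys` and its map to `F₄(k)` (S3635, task O3)
-/

set_option autoImplicit false
set_option linter.unusedSectionVars false

namespace Cfsg.Agent.H203.TW

open Cfsg Cfsg.Lie Cfsg.Agent.H45.UniE Cfsg.Agent.H405.UE Cfsg.Agent.H421.UniE Cfsg.Agent.H564.TW
open Cfsg.Agent.ChevalleyStructure
open Cfsg.Agent.Nodes.RGDChev Cfsg.Agent.KFacts.RgdChevCoord Cfsg.Agent.H129.TorusChar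
open Cfsg.Agent.ChevalleyStructure.TwF4.Groups (isPosRoot_iff)
open Cfsg.Agent.ChevalleyStructure.TwF4.TwistedFix (Rln)
open Cfsg.Agent.KFacts.TwF4 (Full Sys od ev od_or_ev)
open Cfsg.Agent.KFacts.TwF4.Inst (go ge ro re oA oB eA eB eC eD lt48 full torus_diag torus_ge pow_e)
open Cfsg.Agent.H564.U (zz zz_zero)
open Cfsg.Agent.ChevalleyStructure.TwF4.Torus (T chi single_mul_prod hMat_eq diagonal_eq_range)
open Cfsg.Agent.ChevalleyStructure.TwF4.TwGen (tc T_tc_mem tc_mul n1_conj_T n2_conj_T)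
open Cfsg.Agent.SplitTwo Cfsg.Agent.SplitTwo.ZS Cfsg.Agent.TitsThree.RankTwoZ

universe u

section full

variable {F : Type*} [Field F] {σ : F →+* F} {G : Type u} [Group G] (S : Full σ G)

theorem J_per {a b : ℤ} {x : G} (h : x ∈ J S.XZ (a - 16) (b - 16)) : x ∈ J S.XZ a b := by
  have : J S.XZ (a - 16) (b - 16) ≤ J S.XZ a b := by
    refine J_le fun k h1 h2 y hy => ?_
    have h3 : y ∈ S.XZ (k + 2 * 8) := by rw [S.zsys8.per]; exact hy
    exact mem_J h3 (by omega) (by omega)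
  exact this h

theorem XZ_per {a : ℤ} {x : G} (h : x ∈ S.XZ (a - 16)) : x ∈ S.XZ a := by
  have h3 := S.zsys8.per (a - 16)
  rw [show a - 16 + 2 * 8 = a by ring] at h3
  rw [h3]
  exact h

end full

section inst

variable {K : Type*} [Field K] [Fintype K] [CharP K 2] {φ : K →+* K} {m : ℕ}
  (hK : Fintype.card K = 2 ^ (2 * m + 1)) (hφ : Rln φ (2 ^ m))

/-- torus elements -/
def tcS (s t : Kˣ) : ↥(twistedF4 K (2 ^ m)) := ⟨T (tc (2 ^ m) s t), T_tc_mem hφ.pos.ne' (pow_e hφ) s t⟩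

theorem tcS_mul (s t s' t' : Kˣ) : tcS hφ s t * tcS hφ s' t' = tcS hφ (s * s') (t * t') := by
  apply Subtype.ext
  show T (tc (2 ^ m) s t) * T (tc (2 ^ m) s' t') = T (tc (2 ^ m) (s * s') (t * t'))
  rw [← map_mul, tc_mul]

theorem mem_T_iff (g : ↥(twistedF4 K (2 ^ m))) : g ∈ (full hK hφ).T ↔ ∃ s t, tcS hφ s t = g := by
  constructor
  · intro hg
    have h1 := torus_diag hφ hg
    obtain ⟨s, t, h2⟩ := (TwF4.TorusFix.mem_iff hK (g : GL chevF4.Idx K)).1 ⟨h1, g.2⟩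
    exact ⟨s, t, Subtype.ext h2.symm⟩
  · rintro ⟨s, t, rfl⟩
    refine torus_ge ?_
    rw [diagonal_eq_range]
    exact ⟨_, rfl⟩

/-- the coroot elements -/
def hhS : Fin 2 → Kˣ → ↥(twistedF4 K (2 ^ m)) := ![fun b => tcS hφ 1 b, fun b => tcS hφ b 1]

/-- the reflections -/
noncomputable def nS : Fin 2 → ↥(twistedF4 K (2 ^ m)) := ![(full hK hφ).n1, (full hK hφ).n2]

theorem n1_hh (b : Kˣ) : (full hK hφ).n1⁻¹ * tcS hφ 1 b * (full hK hφ).n1 = tcS hφ 1 b⁻¹ := by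
  have h1 : (full hK hφ).n1⁻¹ = (full hK hφ).n1 := inv_eq_of_mul_eq_one_left (full hK hφ).n1_sq
  have h2 : (full hK hφ).n1 * tcS hφ 1 b * (full hK hφ).n1⁻¹ = tcS hφ 1 b⁻¹ := by
    apply Subtype.ext
    show TwF4.Rel.n1 K * T (tc (2 ^ m) 1 b) * (TwF4.Rel.n1 K)⁻¹ = T (tc (2 ^ m) 1 b⁻¹)
    unfold tc
    rw [n1_conj_T]
    congr 1
    funext l
    fin_cases l <;> simp
  rw [h1] at h2 ⊢
  exact h2

theorem n2_hh (b : Kˣ) : (full hK hφ).n2⁻¹ * tcS hφ b 1 * (full hK hφ).n2 = tcS hφ b⁻¹ 1 := by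
  have h1 : (full hK hφ).n2⁻¹ = (full hK hφ).n2 := inv_eq_of_mul_eq_one_left (full hK hφ).n2_sq
  have h2 : (full hK hφ).n2 * tcS hφ b 1 * (full hK hφ).n2⁻¹ = tcS hφ b⁻¹ 1 := by
    apply Subtype.ext
    show TwF4.Rel.n2 K * T (tc (2 ^ m) b 1) * (TwF4.Rel.n2 K)⁻¹ = T (tc (2 ^ m) b⁻¹ 1)
    unfold tc
    rw [n2_conj_T]
    congr 1
    funext l
    fin_cases l <;> simp
  rw [h1] at h2 ⊢
  exact h2

theorem tor_one {A : FDat (Fin 4) (PR chevF4) (AlgebraicClosure K) ↥(chevF4.group (AlgebraicClosure K))}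
    (hA : A.toGDat = gdat Nodes.KindF.isType (AlgebraicClosure K)) {s t : Kˣ} {P : Fin 4 → Prop} {i : Fin 4}
    (hi : ¬ P i) (h : tw K (AlgebraicClosure K) (2 ^ m) (tcS hφ s t) ∈ Lv A P) : tc (2 ^ m) s t i = 1 := by
  have h1 := Δ_one_of A (i := i) (A := P) (fun j hj hji => hi (hji ▸ hj)) h 1
  rw [one_mul, A.Δ_one] at h1
  have h2 := Δ_tw_T hA (T_tc_mem hφ.pos.ne' (pow_e hφ) s t) i
  have h3 : A.Δ i (tw K (AlgebraicClosure K) (2 ^ m) (tcS hφ s t)) =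
      algebraMap K (AlgebraicClosure K) (tc (2 ^ m) s t i) := h2
  rw [h1, ← map_one (algebraMap K (AlgebraicClosure K))] at h3
  exact Units.ext ((algebraMap K (AlgebraicClosure K)).injective h3).symm

theorem charP_cl : CharP (AlgebraicClosure K) 2 :=
  charP_of_injective_algebraMap (algebraMap K (AlgebraicClosure K)).injective 2

include hK in
/-- the torus elements in the first rank one group -/
theorem tor_rank1 {g : ↥(twistedF4 K (2 ^ m))} (hg : g ∈ (full hK hφ).T)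
    (hg' : g ∈ (full hK hφ).XZ 1 ⊔ (full hK hφ).XZ 9) : ∃ b, g = hhS hφ 0 b := by
  have hc := charP_cl (K := K)
  obtain ⟨A, hA, -⟩ := exists_fdat_F4 (AlgebraicClosure K)
  obtain ⟨s, t, rfl⟩ := (mem_T_iff hK hφ g).1 hg
  let P : Fin 4 → Prop := fun i => i = 0 ∨ i = 3
  have h1 : (full hK hφ).XZ 1 ⊔ (full hK hφ).XZ 9 ≤ (Lv A P).comap (tw K (AlgebraicClosure K) (2 ^ m)) := by
    refine sup_le ?_ ?_
    · intro x hx
      obtain ⟨t, rfl⟩ := (KFacts.TwF4.Arc.mem_X1 (full hK hφ)).1 hx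
      exact (ro_mem_Lv hA hφ (Or.inl rfl) (Or.inr rfl) t).1
    · intro x hx
      obtain ⟨t, rfl⟩ := (KFacts.TwF4.Arc.mem_X9 (full hK hφ)).1 hx
      exact (ro_mem_Lv hA hφ (Or.inl rfl) (Or.inr rfl) t).2
  have h2 := tor_one hφ hA (P := P) (i := 2) (by show ¬ ((2 : Fin 4) = 0 ∨ (2 : Fin 4) = 3); decide) (h1 hg')
  have h3 : s = 1 := h2
  exact ⟨t, by rw [h3]; rfl⟩

include hK in
/-- the torus elements in the second rank one group -/
theorem tor_rank2 {g : ↥(twistedF4 K (2 ^ m))} (hg : g ∈ (full hK hφ).T)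
    (hg' : g ∈ (full hK hφ).XZ 8 ⊔ (full hK hφ).XZ 0) : ∃ b, g = hhS hφ 1 b := by
  have hc := charP_cl (K := K)
  obtain ⟨A, hA, -⟩ := exists_fdat_F4 (AlgebraicClosure K)
  obtain ⟨s, t, rfl⟩ := (mem_T_iff hK hφ g).1 hg
  let P : Fin 4 → Prop := fun i => i = 1 ∨ i = 2
  have h1 : (full hK hφ).XZ 8 ⊔ (full hK hφ).XZ 0 ≤ (Lv A P).comap (tw K (AlgebraicClosure K) (2 ^ m)) := by
    refine sup_le ?_ ?_
    · intro x hx
      obtain ⟨p, u, rfl⟩ := (KFacts.TwF4.Arc.mem_X8 (full hK hφ)).1 hx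
      exact (re_mem_Lv hA hφ (Or.inl rfl) (Or.inr rfl) p u).1
    · intro x hx
      obtain ⟨p, u, rfl⟩ := (KFacts.TwF4.Arc.mem_X0 (full hK hφ)).1 hx
      exact (re_mem_Lv hA hφ (Or.inl rfl) (Or.inr rfl) p u).2
  have h2 := tor_one hφ hA (P := P) (i := 3) (by show ¬ ((3 : Fin 4) = 1 ∨ (3 : Fin 4) = 2); decide) (h1 hg')
  have h3 : t = 1 := h2
  exact ⟨s, by rw [h3]; rfl⟩

/-- the rank one relation -/
theorem rank_gen {G : Type*} [Group G] {X : ZMod (2 * 8) → Subgroup G} {A B : Subgroup G} {n : G} {c : ZMod (2 * 8)}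
    (hn : Maps X n (fun k => c - k)) (hsq : n * n = 1) (hY : ∀ y ∈ B, n * y * n⁻¹ ∈ A) (hnAB : n ∈ A ⊔ B)
    {u v v' : G} (hu : u ∈ A) (hv : v ∈ B) (hv' : v' ∈ B) (hw : Maps X (v * u * v') (fun k => c - k)) :
    ∃ y ∈ B, ∃ h ∈ torus X, h ∈ A ⊔ B ∧ ∃ x ∈ A, u * n = y * h * x := by
  have hi : n⁻¹ = n := inv_eq_of_mul_eq_one_left hsq
  refine ⟨v⁻¹, inv_mem hv, v * u * v' * n⁻¹, ?_, ?_, n * v'⁻¹ * n⁻¹, hY _ (inv_mem hv'), ?_⟩
  · have h1 := RGDZ.conj_mem hn (RGDZ.inv_mul_mem hn hw)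
    have e : n * (n⁻¹ * (v * u * v')) * n⁻¹ = v * u * v' * n⁻¹ := by group
    rwa [e] at h1
  · have h1 : ∀ x ∈ A, x ∈ A ⊔ B := fun x hx => Subgroup.mem_sup_left hx
    have h2 : ∀ x ∈ B, x ∈ A ⊔ B := fun x hx => Subgroup.mem_sup_right hx
    exact mul_mem (mul_mem (mul_mem (h2 _ hv) (h1 _ hu)) (h2 _ hv')) (inv_mem hnAB)
  · have e : v⁻¹ * (v * u * v' * n⁻¹) * (n * v'⁻¹ * n⁻¹) = u * n⁻¹ := by group
    rw [e, hi]

include hK in
theorem rank1 {u : ↥(twistedF4 K (2 ^ m))} (hu : u ∈ (full hK hφ).XZ 1) (hu1 : u ≠ 1) :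
    ∃ y ∈ (full hK hφ).XZ 9, ∃ b : Kˣ, ∃ x ∈ (full hK hφ).XZ 1, u * (full hK hφ).n1 = y * hhS hφ 0 b * x := by
  obtain ⟨v, hv, v', hv', hw⟩ := (full hK hφ).R.mu ((1 : ℤ) : ZMod (2 * 8)) u hu hu1
  have e1 : ((1 : ℤ) : ZMod (2 * 8)) + ((8 : ℕ) : ZMod (2 * 8)) = ((9 : ℤ) : ZMod (2 * 8)) := by decide
  rw [e1] at hv hv'
  have hw' : Maps (full hK hφ).R.X (v * u * v') (fun k => 10 - k) := by
    intro k x
    have h1 := hw k x
    have e2 : (2 : ZMod (2 * 8)) * ((1 : ℤ) : ZMod (2 * 8)) + ((8 : ℕ) : ZMod (2 * 8)) - k = 10 - k := by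
      have : (2 : ZMod (2 * 8)) * ((1 : ℤ) : ZMod (2 * 8)) + ((8 : ℕ) : ZMod (2 * 8)) = 10 := by decide
      rw [this]
    rw [e2] at h1
    exact h1
  obtain ⟨y, hy, h, hh, hh', x, hx, e⟩ := rank_gen (A := (full hK hφ).XZ 1) (B := (full hK hφ).XZ 9)
    (KFacts.TwF4.Arc.n1_maps (full hK hφ)) (full hK hφ).n1_sq
    (fun y hy => (full hK hφ).n1_refl.mem' hy (by norm_num))
    (KFacts.TwF4.Inv.n1_mem_of (full hK hφ) le_sup_left le_sup_right) hu hv hv' hw'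
  obtain ⟨b, rfl⟩ := tor_rank1 hK hφ hh hh'
  exact ⟨y, hy, b, x, hx, e⟩

include hK in
theorem rank2 {u : ↥(twistedF4 K (2 ^ m))} (hu : u ∈ (full hK hφ).XZ 8) (hu1 : u ≠ 1) :
    ∃ y ∈ (full hK hφ).XZ 0, ∃ b : Kˣ, ∃ x ∈ (full hK hφ).XZ 8, u * (full hK hφ).n2 = y * hhS hφ 1 b * x := by
  obtain ⟨v, hv, v', hv', hw⟩ := (full hK hφ).R.mu ((8 : ℤ) : ZMod (2 * 8)) u hu hu1
  have e1 : ((8 : ℤ) : ZMod (2 * 8)) + ((8 : ℕ) : ZMod (2 * 8)) = ((0 : ℤ) : ZMod (2 * 8)) := by decide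
  rw [e1] at hv hv'
  have hw' : Maps (full hK hφ).R.X (v * u * v') (fun k => 8 - k) := by
    intro k x
    have h1 := hw k x
    have e2 : (2 : ZMod (2 * 8)) * ((8 : ℤ) : ZMod (2 * 8)) + ((8 : ℕ) : ZMod (2 * 8)) - k = 8 - k := by
      have : (2 : ZMod (2 * 8)) * ((8 : ℤ) : ZMod (2 * 8)) + ((8 : ℕ) : ZMod (2 * 8)) = 8 := by decide
      rw [this]
    rw [e2] at h1
    exact h1
  obtain ⟨y, hy, h, hh, hh', x, hx, e⟩ := rank_gen (A := (full hK hφ).XZ 8) (B := (full hK hφ).XZ 0)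
    (full hK hφ).n2_maps (full hK hφ).n2_sq
    (fun y hy => (full hK hφ).n2_refl.mem' hy (by norm_num))
    (KFacts.TwF4.Inv.n2_mem_of (full hK hφ) le_sup_right le_sup_left) hu hv hv' hw'
  obtain ⟨b, rfl⟩ := tor_rank2 hK hφ hh hh'
  exact ⟨y, hy, b, x, hx, e⟩

/-- all root groups are conjugate to negative ones -/
theorem gen_aux {C : Subgroup ↥(twistedF4 K (2 ^ m))} (hU : J (full hK hφ).XZ 9 16 ≤ C) (h1 : (full hK hφ).n1 ∈ C)
    (h2 : (full hK hφ).n2 ∈ C) : C = ⊤ := by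
  have hr : (full hK hφ).rot ∈ C := mul_mem h1 h2
  have ho : ∀ a, ∀ t, (full hK hφ).o a t ∈ C := by
    intro a
    refine Sys.ind8 (P := fun a => ∀ t, (full hK hφ).o a t ∈ C) 4 (fun t => ?_) ?_ a
    · exact hU (mem_J ((KFacts.TwF4.Arc.mem_X9 (full hK hφ)).2 ⟨t, rfl⟩) (by norm_num) (by norm_num))
    · intro a ih t
      rw [← (full hK hφ).rot_o]
      exact mul_mem (mul_mem hr (ih t)) (inv_mem hr)
  have he : ∀ a, ∀ p u, (full hK hφ).e a p u ∈ C := by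
    intro a
    refine Sys.ind8 (P := fun a => ∀ p u, (full hK hφ).e a p u ∈ C) 0 (fun p u => ?_) ?_ a
    · have h3 : (full hK hφ).e 0 p u ∈ (full hK hφ).XZ (16 - 16) := (KFacts.TwF4.Arc.mem_X0 (full hK hφ)).2 ⟨p, u, rfl⟩
      exact hU (mem_J (XZ_per (full hK hφ) h3) (by norm_num) (by norm_num))
    · intro a ih p u
      rw [← (full hK hφ).rot_e]
      exact mul_mem (mul_mem hr (ih p u)) (inv_mem hr)
  rw [eq_top_iff, ← (full hK hφ).R.gen]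
  refine iSup_le fun i => ?_
  rcases od_or_ev i with ⟨a, rfl⟩ | ⟨a, rfl⟩
  · intro g hg
    obtain ⟨t, rfl⟩ := ((full hK hφ).mem_odd a g).1 hg
    exact ho a t
  · intro g hg
    obtain ⟨p, u, rfl⟩ := ((full hK hφ).mem_even a g).1 hg
    exact he a p u

theorem Um_eq1 (u : ↥(twistedF4 K (2 ^ m))) (hu : u ∈ J (full hK hφ).XZ 9 16) :
    ∃ z ∈ J (full hK hφ).XZ 10 16, ∃ y ∈ (full hK hφ).XZ 9, u = z * y := by
  obtain ⟨y, hy, x, hx, e⟩ := (full hK hφ).zsys8.split_lr (a := 9) (b := 16) (by norm_num) (by norm_num) hu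
  exact ⟨y, J_mono (by norm_num) (by norm_num) hy, x, hx, e⟩

theorem Um_eq2 (u : ↥(twistedF4 K (2 ^ m))) (hu : u ∈ J (full hK hφ).XZ 9 16) :
    ∃ z ∈ J (full hK hφ).XZ 9 15, ∃ y ∈ (full hK hφ).XZ 0, u = z * y := by
  obtain ⟨y, hy, x, hx, e⟩ := (full hK hφ).zsys8.split_rr (a := 9) (b := 16) (by norm_num) (by norm_num) hu
  refine ⟨y, J_mono (by norm_num) (by norm_num) hy, x, ?_, e⟩
  have h3 := (full hK hφ).zsys8.per 0
  rw [show (0 : ℤ) + 2 * 8 = 16 by ring] at h3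
  rw [← h3]; exact hx

theorem U_eq1 (u : ↥(twistedF4 K (2 ^ m))) (hu : u ∈ J (full hK hφ).XZ 1 8) :
    ∃ x ∈ (full hK hφ).XZ 1, ∃ v ∈ J (full hK hφ).XZ 2 8, u = x * v := by
  obtain ⟨x, hx, y, hy, e⟩ := (full hK hφ).zsys8.split_ll (a := 1) (b := 8) (by norm_num) (by norm_num) hu
  exact ⟨x, hx, y, J_mono (by norm_num) (by norm_num) hy, e⟩

theorem U_eq2 (u : ↥(twistedF4 K (2 ^ m))) (hu : u ∈ J (full hK hφ).XZ 1 8) :
    ∃ x ∈ (full hK hφ).XZ 8, ∃ v ∈ J (full hK hφ).XZ 1 7, u = x * v := by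
  obtain ⟨x, hx, y, hy, e⟩ := (full hK hφ).zsys8.split_rl (a := 1) (b := 8) (by norm_num) (by norm_num) hu
  exact ⟨x, hx, y, J_mono (by norm_num) (by norm_num) hy, e⟩

/-- **the system of `²F₄(q)`** -/
noncomputable def sysT : TSys (Fin 2) K ↥(twistedF4 K (2 ^ m)) where
  U := J (full hK hφ).XZ 1 8
  Um := J (full hK hφ).XZ 9 16
  H := (full hK hφ).T
  X := ![(full hK hφ).XZ 1, (full hK hφ).XZ 8]
  Y := ![(full hK hφ).XZ 9, (full hK hφ).XZ 0]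
  V := ![J (full hK hφ).XZ 2 8, J (full hK hφ).XZ 1 7]
  Z := ![J (full hK hφ).XZ 10 16, J (full hK hφ).XZ 9 15]
  n := nS hK hφ
  hh := hhS hφ
  gen := by
    apply gen_aux hK hφ
    · exact fun x hx => Subgroup.subset_closure (Or.inl hx)
    · exact Subgroup.subset_closure (Or.inr (Or.inr ⟨0, rfl⟩))
    · exact Subgroup.subset_closure (Or.inr (Or.inr ⟨1, rfl⟩))
  H_comm s hs t ht := by
    obtain ⟨a, b, rfl⟩ := (mem_T_iff hK hφ s).1 hs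
    obtain ⟨c, d, rfl⟩ := (mem_T_iff hK hφ t).1 ht
    rw [tcS_mul, tcS_mul, mul_comm a, mul_comm b]
  hh_mem := Fin.forall_fin_two.2 ⟨fun b => (mem_T_iff hK hφ _).2 ⟨1, b, rfl⟩, fun b => (mem_T_iff hK hφ _).2 ⟨b, 1, rfl⟩⟩
  hh_mul := Fin.forall_fin_two.2 ⟨fun b c => by
      show tcS hφ 1 (b * c) = tcS hφ 1 b * tcS hφ 1 c
      rw [tcS_mul, one_mul], fun b c => by
      show tcS hφ (b * c) 1 = tcS hφ b 1 * tcS hφ c 1
      rw [tcS_mul, one_mul]⟩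
  H_gen := by
    intro g hg
    obtain ⟨a, b, rfl⟩ := (mem_T_iff hK hφ g).1 hg
    have e : tcS hφ a b = hhS hφ 0 b * hhS hφ 1 a := by
      show _ = tcS hφ 1 b * tcS hφ a 1
      rw [tcS_mul, one_mul, mul_one]
    rw [e]
    exact mul_mem (Subgroup.subset_closure ⟨0, b, rfl⟩) (Subgroup.subset_closure ⟨1, a, rfl⟩)
  n_hh := Fin.forall_fin_two.2 ⟨fun b => n1_hh hK hφ b, fun b => n2_hh hK hφ b⟩
  n_sq := Fin.forall_fin_two.2 ⟨by
      show (full hK hφ).n1 * (full hK hφ).n1 ∈ _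
      rw [(full hK hφ).n1_sq]; exact one_mem _, by
      show (full hK hφ).n2 * (full hK hφ).n2 ∈ _
      rw [(full hK hφ).n2_sq]; exact one_mem _⟩
  X_ne := Fin.forall_fin_two.2 ⟨(full hK hφ).zsys8.ne_bot 1, (full hK hφ).zsys8.ne_bot 8⟩
  X_le := Fin.forall_fin_two.2 ⟨X_le_J (X := (full hK hφ).XZ) (k := 1) (a := 1) (b := 8) (by norm_num) (by norm_num),
    X_le_J (X := (full hK hφ).XZ) (k := 8) (a := 1) (b := 8) (by norm_num) (by norm_num)⟩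
  Y_le := Fin.forall_fin_two.2 ⟨X_le_J (X := (full hK hφ).XZ) (k := 9) (a := 9) (b := 16) (by norm_num) (by norm_num), fun x hx =>
    mem_J (XZ_per (full hK hφ) (a := 16) hx) (by norm_num) (by norm_num)⟩
  Z_le := Fin.forall_fin_two.2 ⟨J_mono (X := (full hK hφ).XZ) (a := 10) (b := 16) (c := 9) (d := 16) (by norm_num) (by norm_num),
    J_mono (X := (full hK hφ).XZ) (a := 9) (b := 15) (c := 9) (d := 16) (by norm_num) (by norm_num)⟩
  U_eq := Fin.forall_fin_two.2 ⟨U_eq1 hK hφ, U_eq2 hK hφ⟩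
  Um_eq := Fin.forall_fin_two.2 ⟨Um_eq1 hK hφ, Um_eq2 hK hφ⟩
  V_le := Fin.forall_fin_two.2 ⟨J_mono (X := (full hK hφ).XZ) (a := 2) (b := 8) (c := 1) (d := 8) (by norm_num) (by norm_num),
    J_mono (X := (full hK hφ).XZ) (a := 1) (b := 7) (c := 1) (d := 8) (by norm_num) (by norm_num)⟩
  X_V := Fin.forall_fin_two.2 ⟨fun x hx v hv => by
      have h := (full hK hφ).zsys8.conj_X (a := 2) (b := 8) (k := 1) (by norm_num) (by norm_num) (by norm_num)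
        (inv_mem hx) hv
      rwa [inv_inv] at h, fun x hx v hv => by
      have h := (full hK hφ).zsys8.conj_X (a := 1) (b := 7) (k := 8) (by norm_num) (by norm_num) (by norm_num)
        (inv_mem hx) hv
      rwa [inv_inv] at h⟩
  n_V := Fin.forall_fin_two.2 ⟨fun v hv => (full hK hφ).n1_refl.mem_J_inv hv (by norm_num) (by norm_num),
    fun v hv => (full hK hφ).n2_refl.mem_J_inv hv (by norm_num) (by norm_num)⟩
  n_Z := Fin.forall_fin_two.2 ⟨fun z hz => J_per (full hK hφ) ((full hK hφ).n1_refl.mem_J hz (by norm_num) (by norm_num)),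
    fun z hz => J_per (full hK hφ) ((full hK hφ).n2_refl.mem_J hz (by norm_num) (by norm_num))⟩
  n_Y := Fin.forall_fin_two.2 ⟨fun y hy => (full hK hφ).n1_refl.mem' hy (by norm_num),
    fun y hy => (full hK hφ).n2_refl.mem' hy (by norm_num)⟩
  H_X := Fin.forall_fin_two.2 ⟨fun h hh x hx => (full hK hφ).T_conj hh 1 hx, fun h hh x hx => (full hK hφ).T_conj hh 8 hx⟩
  H_Um := fun h hh u hu => (full hK hφ).T_conj_J hh hu
  rank := Fin.forall_fin_two.2 ⟨fun u hu hu1 => rank1 hK hφ hu hu1, fun u hu hu1 => rank2 hK hφ hu hu1⟩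

end inst

end Cfsg.Agent.H203.TW
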