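import Cfsg.Agent.H203.TW.Cls
import Cfsg.Agent.H564.TW.Def

/-!
# The image of `²F₄(q)` in `F₄(k)`: fundamental functions (S3635)
-/

set_option autoImplicit false
set_option linter.unusedSectionVars false

namespace Cfsg.Agent.H203.TW

open Cfsg Cfsg.Lie Cfsg.Agent.H45.UniE Cfsg.Agent.H405.UE Cfsg.Agent.H421.UniE
open Cfsg.Agent.ChevalleyStructure
open Cfsg.Agent.Nodes.RGDChev Cfsg.Agent.KFacts.RgdChevCoord Cfsg.Agent.H129.TorusChar
open Cfsg.Agent.ChevalleyStructure.TwF4.Groups (isPosRoot_iff)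
open Cfsg.Agent.ChevalleyStructure.TwF4.TwistedFix (Rln)
open Cfsg.Agent.KFacts.TwF4.Inst (go ge ro re oA oB eA eB eC eD lt48)
open Cfsg.Agent.H564.U (zz zz_zero)
open Cfsg.Agent.ChevalleyStructure.TwF4.Torus (T chi single_mul_prod hMat_eq)
open Cfsg.Agent.ChevalleyStructure.TwF4.TwGen (tc T_tc_mem)

universe u

/-! ### simple roots -/

theorem simple_tab : chevF4.simple ((0 : Fin 4) : ℕ) = 33 ∧ chevF4.simple ((1 : Fin 4) : ℕ) = 27 ∧
    chevF4.simple ((2 : Fin 4) : ℕ) = 25 ∧ chevF4.simple ((3 : Fin 4) : ℕ) = 24 := by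
  decide

theorem neg_tab : chevF4.neg 33 = 14 ∧ chevF4.neg 27 = 20 ∧ chevF4.neg 25 = 22 ∧ chevF4.neg 24 = 23 := by
  decide

section torus

variable {K : Type*} [Field K] [CharP K 2] {k : Type u} [Field k] [Algebra K k]

theorem T_hc {r : ℕ} (hr : r < 48) (t : Kˣ) :
    T (TwF4.Torus.hc r t) = Elts.hG Nodes.KindF.isType.inList r (t : K) := by
  apply Units.ext
  rw [← hMat_eq hr t]
  rfl

theorem tw_T {e : ℕ} {c : Fin 4 → Kˣ} (h : T c ∈ twistedF4 K e) : tw K k e ⟨T c, h⟩ =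
    hc Nodes.KindF.isType 0 (algebraMap K k (c 0)) * hc Nodes.KindF.isType 1 (algebraMap K k (c 1)) *
      hc Nodes.KindF.isType 2 (algebraMap K k (c 2)) * hc Nodes.KindF.isType 3 (algebraMap K k (c 3)) := by
  apply Subtype.ext
  show Matrix.GeneralLinearGroup.map (algebraMap K k) (T c) = _
  have e1 : T c = Elts.hG Nodes.KindF.isType.inList 33 (c 0 : K) * Elts.hG Nodes.KindF.isType.inList 27 (c 1 : K) *
      Elts.hG Nodes.KindF.isType.inList 25 (c 2 : K) * Elts.hG Nodes.KindF.isType.inList 24 (c 3 : K) := by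
    conv_lhs => rw [single_mul_prod c]
    rw [map_mul, map_mul, map_mul, T_hc (by norm_num), T_hc (by norm_num), T_hc (by norm_num), T_hc (by norm_num)]
  rw [e1]
  simp only [map_mul, glmap_hG]
  rfl

end torus

/-! ### fundamental functions -/

section fdat

variable {k : Type u} [Field k] {A : FDat (Fin 4) (PR chevF4) k ↥(chevF4.group k)}
  (hA : A.toGDat = gdat Nodes.KindF.isType k)

include hA

theorem A_x (i : Fin 4) (s : k) : A.x i s = zz Nodes.KindF.isType (chevF4.simple i) s := by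
  show A.toGDat.x i s = _
  rw [hA]
  exact (zz_simple Nodes.KindF.isType i s)

theorem A_y (i : Fin 4) (s : k) : A.y i s = zz Nodes.KindF.isType (chevF4.neg (chevF4.simple i)) s := by
  show A.toGDat.y i s = _
  rw [hA]
  exact (zz_neg_simple Nodes.KindF.isType i s)

theorem A_hh (i : Fin 4) (c : kˣ) : A.hh i c = hc Nodes.KindF.isType i (c : k) := by
  show A.toGDat.hh i c = _
  rw [hA]
  rfl

theorem A_T : A.T = TT chevF4 k := by
  show A.toGDat.T = _
  rw [hA]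
  rfl

theorem A_z (b : PR chevF4) (s : k) : A.z b s = zz Nodes.KindF.isType b.1 s := by
  show A.toGDat.z b s = _
  rw [hA]
  rfl

theorem A_τz (b : PR chevF4) (s : k) : A.τ (zz Nodes.KindF.isType b.1 s) = zz Nodes.KindF.isType (chevF4.neg b.1) s := by
  show A.toGDat.τ _ = _
  rw [hA]
  exact tau_zz Nodes.KindF.isType b.2.1 s

end fdat

/-! ### the values of the fundamental functions -/

section val

variable {K : Type*} [Field K] [CharP K 2] {k : Type u} [Field k] [Algebra K k]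
  {A : FDat (Fin 4) (PR chevF4) k ↥(chevF4.group k)} (hA : A.toGDat = gdat Nodes.KindF.isType k)

include hA

theorem Δ_hc (i j : Fin 4) {c : k} (hc0 : c ≠ 0) (g : ↥(chevF4.group k)) :
    A.Δ i (g * hc Nodes.KindF.isType j c) = (if i = j then c else 1) * A.Δ i g := by
  have h1 := A_hh hA j (Units.mk0 c hc0)
  rw [Units.val_mk0] at h1
  rw [← h1, A.Δ_T i _ (A.hh_mem _ _), A.Δ_hh, Units.val_mk0]

theorem Δ_tw_T {e : ℕ} {c : Fin 4 → Kˣ} (h : T c ∈ twistedF4 K e) (i : Fin 4) :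
    A.Δ i (tw K k e ⟨T c, h⟩) = algebraMap K k (c i) := by
  have h0 : ∀ i, algebraMap K k (c i) ≠ 0 := fun i => by
    rw [Ne, map_eq_zero]; exact (c i).ne_zero
  rw [tw_T, Δ_hc hA _ _ (h0 3), Δ_hc hA _ _ (h0 2), Δ_hc hA _ _ (h0 1)]
  have h1 : A.Δ i (hc Nodes.KindF.isType 0 (algebraMap K k (c 0))) = if i = 0 then algebraMap K k (c 0) else 1 := by
    have := Δ_hc hA i 0 (h0 0) 1
    rw [one_mul, A.Δ_one, mul_one] at this
    exact this
  rw [h1]
  fin_cases i <;> simp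

/-- the group generated by the root elements of the nodes in `P` -/
def Lv (A : FDat (Fin 4) (PR chevF4) k ↥(chevF4.group k)) (P : Fin 4 → Prop) : Subgroup ↥(chevF4.group k) :=
  Subgroup.closure {g | ∃ j s, P j ∧ (g = A.x j s ∨ g = A.y j s)}

theorem zz_mem_Lv {P : Fin 4 → Prop} {j : Fin 4} (hj : P j) (s : k) :
    zz Nodes.KindF.isType (chevF4.simple j) s ∈ Lv A P ∧
      zz Nodes.KindF.isType (chevF4.neg (chevF4.simple j)) s ∈ Lv A P :=
  ⟨Subgroup.subset_closure ⟨j, s, hj, Or.inl (A_x hA j s).symm⟩,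
    Subgroup.subset_closure ⟨j, s, hj, Or.inr (A_y hA j s).symm⟩⟩

end val

section lv

variable {K : Type*} [Field K] [CharP K 2] {k : Type u} [Field k] [CharP k 2] [Algebra K k]
  {A : FDat (Fin 4) (PR chevF4) k ↥(chevF4.group k)} (hA : A.toGDat = gdat Nodes.KindF.isType k)

/-- conjugation by the reflections, characteristic two -/
theorem zz_refl {i r : ℕ} (hi : i < 4) (hr : r < 48) (s : k) :
    zz Nodes.KindF.isType (TwF4.Rel.refl i r) s =
      (zz Nodes.KindF.isType (TwF4.Rel.sp i) (1 : k) * zz Nodes.KindF.isType (47 - TwF4.Rel.sp i) 1 *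
        zz Nodes.KindF.isType (TwF4.Rel.sp i) 1) * zz Nodes.KindF.isType r s *
      (zz Nodes.KindF.isType (TwF4.Rel.sp i) (1 : k) * zz Nodes.KindF.isType (47 - TwF4.Rel.sp i) 1 *
        zz Nodes.KindF.isType (TwF4.Rel.sp i) 1)⁻¹ := by
  have h := TwF4.Rel.nG_conj (K := k) i r hi hr s
  unfold TwF4.Rel.nG at h
  simp only [X_eq_xG] at h
  exact Subtype.ext h.symm

include hA

theorem cls_mem_Lv {P : Fin 4 → Prop} (h1 : P 1) (h2 : P 2) (s : k) :
    (zz Nodes.KindF.isType 28 s ∈ Lv A P ∧ zz Nodes.KindF.isType 30 s ∈ Lv A P) ∧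
      (zz Nodes.KindF.isType 19 s ∈ Lv A P ∧ zz Nodes.KindF.isType 17 s ∈ Lv A P) := by
  have a1 := fun s => zz_mem_Lv hA h1 s
  have a2 := fun s => zz_mem_Lv hA h2 s
  rw [simple_tab.2.1, neg_tab.2.1] at a1
  rw [simple_tab.2.2.1, neg_tab.2.2.1] at a2
  have e1 := zz_refl (k := k) (i := 2) (r := 27) (by norm_num) (by norm_num) s
  have e2 := zz_refl (k := k) (i := 1) (r := 25) (by norm_num) (by norm_num) s
  have e3 := zz_refl (k := k) (i := 2) (r := 20) (by norm_num) (by norm_num) s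
  have e4 := zz_refl (k := k) (i := 1) (r := 22) (by norm_num) (by norm_num) s
  have t1 : TwF4.Rel.refl 2 27 = 28 := by decide
  have t2 : TwF4.Rel.refl 1 25 = 30 := by decide
  have t3 : TwF4.Rel.refl 2 20 = 19 := by decide
  have t4 : TwF4.Rel.refl 1 22 = 17 := by decide
  have t5 : TwF4.Rel.sp 1 = 27 := rfl
  have t6 : TwF4.Rel.sp 2 = 25 := rfl
  have n1 : zz Nodes.KindF.isType 25 (1 : k) * zz Nodes.KindF.isType 22 1 * zz Nodes.KindF.isType 25 1 ∈ Lv A P :=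
    mul_mem (mul_mem (a2 1).1 (a2 1).2) (a2 1).1
  have n2 : zz Nodes.KindF.isType 27 (1 : k) * zz Nodes.KindF.isType 20 1 * zz Nodes.KindF.isType 27 1 ∈ Lv A P :=
    mul_mem (mul_mem (a1 1).1 (a1 1).2) (a1 1).1
  rw [t1, t6] at e1
  rw [t2, t5] at e2
  rw [t3, t6] at e3
  rw [t4, t5] at e4
  refine ⟨⟨?_, ?_⟩, ⟨?_, ?_⟩⟩
  · rw [e1]; exact mul_mem (mul_mem n1 (a1 s).1) (inv_mem n1)
  · rw [e2]; exact mul_mem (mul_mem n2 (a2 s).1) (inv_mem n2)
  · rw [e3]; exact mul_mem (mul_mem n1 (a1 s).2) (inv_mem n1)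
  · rw [e4]; exact mul_mem (mul_mem n2 (a2 s).2) (inv_mem n2)

variable [Finite K] {φ : K →+* K} {e : ℕ}

theorem ro_mem_Lv (hφ : Rln φ e) {P : Fin 4 → Prop} (h0 : P 0) (h3 : P 3) (t : K) :
    tw K k e (ro hφ 0 t) ∈ Lv A P ∧ tw K k e (ro hφ 4 t) ∈ Lv A P := by
  have a1 := fun s => zz_mem_Lv hA h0 s
  have a2 := fun s => zz_mem_Lv hA h3 s
  rw [simple_tab.1, neg_tab.1] at a1
  rw [simple_tab.2.2.2, neg_tab.2.2.2] at a2
  rw [tw_ro, tw_ro]
  exact ⟨mul_mem (a1 _).1 (a2 _).1, mul_mem (a1 _).2 (a2 _).2⟩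

theorem re_mem_Lv (hφ : Rln φ e) {P : Fin 4 → Prop} (h1 : P 1) (h2 : P 2) (p u : K) :
    tw K k e (re hφ 4 p u) ∈ Lv A P ∧ tw K k e (re hφ 0 p u) ∈ Lv A P := by
  have a1 := fun s => zz_mem_Lv hA h1 s
  have a2 := fun s => zz_mem_Lv hA h2 s
  have a3 := fun s => cls_mem_Lv hA h1 h2 s
  rw [simple_tab.2.1, neg_tab.2.1] at a1
  rw [simple_tab.2.2.1, neg_tab.2.2.1] at a2
  rw [tw_re, tw_re]
  exact ⟨mul_mem (mul_mem (mul_mem (a1 _).1 (a2 _).1) (a3 _).1.1) (a3 _).1.2,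
    mul_mem (mul_mem (mul_mem (a1 _).2 (a2 _).2) (a3 _).2.1) (a3 _).2.2⟩

end lv

end Cfsg.Agent.H203.TW
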