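import Cfsg.Agent.H203.TW.Inst

/-!
# The map `tw : ²F₄(q) → F₄(k)` is a `TSys.Map` (S3635, task O3)
-/

set_option autoImplicit false
set_option linter.unusedSectionVars false

namespace Cfsg.Agent.H203.TW

open Cfsg Cfsg.Lie Cfsg.Agent.H45.UniE Cfsg.Agent.H405.UE Cfsg.Agent.H421.UniE Cfsg.Agent.H564.TW
open Cfsg.Agent.ChevalleyStructure
open Cfsg.Agent.Nodes.RGDChev Cfsg.Agent.KFacts.RgdChevCoord Cfsg.Agent.H129.TorusChar
open Cfsg.Agent.ChevalleyStructure.TwF4.Groups (isPosRoot_iff)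
open Cfsg.Agent.ChevalleyStructure.TwF4.TwistedFix (Rln)
open Cfsg.Agent.KFacts.TwF4 (Full Sys od ev od_or_ev)
open Cfsg.Agent.KFacts.TwF4.Inst (go ge ro re oA oB eA eB eC eD lt48 full torus_diag torus_ge pow_e)
open Cfsg.Agent.H564.U (zz zz_zero zz_inv)
open Cfsg.Agent.ChevalleyStructure.TwF4.Torus (T chi single_mul_prod hMat_eq diagonal_eq_range ng_eq ng_eq_sub)
open Cfsg.Agent.ChevalleyStructure.TwF4.TwGen (tc T_tc_mem tc_mul n1_conj_T n2_conj_T)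
open Cfsg.Agent.SplitTwo Cfsg.Agent.SplitTwo.ZS Cfsg.Agent.TitsThree.RankTwoZ

universe u

/-- signs of the roots in the tables -/
theorem tabP : ∀ a : ZMod 8, (a = 0 ∨ a = 1 ∨ a = 2 ∨ a = 3 → 24 ≤ oA a ∧ 24 ≤ oB a) ∧
    (a = 1 ∨ a = 2 ∨ a = 3 ∨ a = 4 → 24 ≤ eA a ∧ 24 ≤ eB a ∧ 24 ≤ eC a ∧ 24 ≤ eD a) ∧
    (a = 4 ∨ a = 5 ∨ a = 6 ∨ a = 7 → oA a < 24 ∧ oB a < 24) ∧
    (a = 5 ∨ a = 6 ∨ a = 7 ∨ a = 0 → eA a < 24 ∧ eB a < 24 ∧ eC a < 24 ∧ eD a < 24) := by decide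

/-- opposite roots in the tables -/
theorem tabN : ∀ a : ZMod 8, 47 - oA a = oA (a + 4) ∧ 47 - oB a = oB (a + 4) ∧ 47 - eA a = eA (a + 4) ∧
    47 - eB a = eB (a + 4) ∧ 47 - eC a = eC (a + 4) ∧ 47 - eD a = eD (a + 4) := by decide

theorem simple_lt48 : ∀ i : Fin 4, chevF4.simple (i : ℕ) < 48 := by decide

theorem co_simple : ∀ i l : Fin 4, F4NTab.co (chevF4.simple (i : ℕ)) l.val = if l = i then 1 else 0 := by decide

section fdat

variable {k : Type u} [Field k] {A : FDat (Fin 4) (PR chevF4) k ↥(chevF4.group k)}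
  (hA : A.toGDat = gdat Nodes.KindF.isType k)

include hA

theorem τ_zz {r : ℕ} (hr : r < 48) (s : k) : A.τ (zz Nodes.KindF.isType r s) = zz Nodes.KindF.isType (47 - r) s := by
  have key : ∀ {r : ℕ}, r < 48 → 24 ≤ r → ∀ s : k, A.τ (zz Nodes.KindF.isType r s) = zz Nodes.KindF.isType (47 - r) s := by
    intro r hr h s
    have h1 := A_τz hA ⟨r, (isPosRoot_iff r).2 ⟨hr, h⟩⟩ s
    have h2 : chevF4.neg r = 47 - r := by rw [ng_eq hr, ng_eq_sub hr]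
    rw [h2] at h1
    exact h1
  rcases Nat.lt_or_ge r 24 with h | h
  · have h1 := key (r := 47 - r) (by omega) (by omega) s
    rw [show 47 - (47 - r) = r by omega] at h1
    rw [← h1, A.τ_τ]
  · exact key hr h s

theorem zz_mem_U {r : ℕ} (hr : r < 48) (h : 24 ≤ r) (s : k) : zz Nodes.KindF.isType r s ∈ A.U :=
  Subgroup.subset_closure ⟨⟨r, (isPosRoot_iff r).2 ⟨hr, h⟩⟩, s, (A_z hA ⟨r, (isPosRoot_iff r).2 ⟨hr, h⟩⟩ s).symm⟩

theorem zz_mem_Um {r : ℕ} (h : r < 24) (s : k) : zz Nodes.KindF.isType r s ∈ A.Um := by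
  have h1 := A.τ_U (zz_mem_U hA (r := 47 - r) (by omega) (by omega) s)
  rw [τ_zz hA (by omega), show 47 - (47 - r) = r by omega] at h1
  exact h1

end fdat

section inst

variable {K : Type*} [Field K] [Fintype K] [CharP K 2] {φ : K →+* K} {m : ℕ}
  (hK : Fintype.card K = 2 ^ (2 * m + 1)) (hφ : Rln φ (2 ^ m))
  {k : Type u} [Field k] [CharP k 2] [Algebra K k] {A : FDat (Fin 4) (PR chevF4) k ↥(chevF4.group k)}
  (hA : A.toGDat = gdat Nodes.KindF.isType k)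

include hA

theorem map_U {g : ↥(twistedF4 K (2 ^ m))} (hg : g ∈ J (full hK hφ).XZ 1 8) : tw K k (2 ^ m) g ∈ A.U := by
  have h : J (full hK hφ).XZ 1 8 ≤ A.U.comap (tw K k (2 ^ m)) := by
    refine J_le fun j h1 h2 x hx => ?_
    rw [Subgroup.mem_comap]
    obtain ⟨a, h | h⟩ := Int.even_or_odd' j
    · rw [h] at hx
      obtain ⟨p, u, rfl⟩ := ((full hK hφ).mem_XZ_even a x).1 hx
      have ha : (a : ZMod 8) = 1 ∨ (a : ZMod 8) = 2 ∨ (a : ZMod 8) = 3 ∨ (a : ZMod 8) = 4 := by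
        have h3 : a = 1 ∨ a = 2 ∨ a = 3 ∨ a = 4 := by omega
        rcases h3 with rfl | rfl | rfl | rfl <;> simp
      obtain ⟨b1, b2, b3, b4⟩ := (tabP (a : ZMod 8)).2.1 ha
      obtain ⟨-, -, l1, l2, l3, l4⟩ := lt48 (a : ZMod 8)
      show tw K k (2 ^ m) (re hφ (a : ZMod 8) p u) ∈ A.U
      rw [tw_re]
      exact mul_mem (mul_mem (mul_mem (zz_mem_U hA l1 b1 _) (zz_mem_U hA l2 b2 _)) (zz_mem_U hA l3 b3 _))
        (zz_mem_U hA l4 b4 _)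
    · rw [h] at hx
      obtain ⟨t, rfl⟩ := ((full hK hφ).mem_XZ_odd a x).1 hx
      have ha : (a : ZMod 8) = 0 ∨ (a : ZMod 8) = 1 ∨ (a : ZMod 8) = 2 ∨ (a : ZMod 8) = 3 := by
        have h3 : a = 0 ∨ a = 1 ∨ a = 2 ∨ a = 3 := by omega
        rcases h3 with rfl | rfl | rfl | rfl <;> simp
      obtain ⟨b1, b2⟩ := (tabP (a : ZMod 8)).1 ha
      obtain ⟨l1, l2, -⟩ := lt48 (a : ZMod 8)
      show tw K k (2 ^ m) (ro hφ (a : ZMod 8) t) ∈ A.U
      rw [tw_ro]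
      exact mul_mem (zz_mem_U hA l1 b1 _) (zz_mem_U hA l2 b2 _)
  exact h hg

theorem map_Um {g : ↥(twistedF4 K (2 ^ m))} (hg : g ∈ J (full hK hφ).XZ 9 16) : tw K k (2 ^ m) g ∈ A.Um := by
  have h : J (full hK hφ).XZ 9 16 ≤ A.Um.comap (tw K k (2 ^ m)) := by
    refine J_le fun j h1 h2 x hx => ?_
    rw [Subgroup.mem_comap]
    obtain ⟨a, h | h⟩ := Int.even_or_odd' j
    · rw [h] at hx
      obtain ⟨p, u, rfl⟩ := ((full hK hφ).mem_XZ_even a x).1 hx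
      have ha : (a : ZMod 8) = 5 ∨ (a : ZMod 8) = 6 ∨ (a : ZMod 8) = 7 ∨ (a : ZMod 8) = 0 := by
        have h3 : a = 5 ∨ a = 6 ∨ a = 7 ∨ a = 8 := by omega
        rcases h3 with rfl | rfl | rfl | rfl
        · simp
        · simp
        · simp
        · right; right; right; rfl
      obtain ⟨b1, b2, b3, b4⟩ := (tabP (a : ZMod 8)).2.2.2 ha
      show tw K k (2 ^ m) (re hφ (a : ZMod 8) p u) ∈ A.Um
      rw [tw_re]
      exact mul_mem (mul_mem (mul_mem (zz_mem_Um hA b1 _) (zz_mem_Um hA b2 _)) (zz_mem_Um hA b3 _))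
        (zz_mem_Um hA b4 _)
    · rw [h] at hx
      obtain ⟨t, rfl⟩ := ((full hK hφ).mem_XZ_odd a x).1 hx
      have ha : (a : ZMod 8) = 4 ∨ (a : ZMod 8) = 5 ∨ (a : ZMod 8) = 6 ∨ (a : ZMod 8) = 7 := by
        have h3 : a = 4 ∨ a = 5 ∨ a = 6 ∨ a = 7 := by omega
        rcases h3 with rfl | rfl | rfl | rfl <;> simp
      obtain ⟨b1, b2⟩ := (tabP (a : ZMod 8)).2.2.1 ha
      show tw K k (2 ^ m) (ro hφ (a : ZMod 8) t) ∈ A.Um
      rw [tw_ro]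
      exact mul_mem (zz_mem_Um hA b1 _) (zz_mem_Um hA b2 _)
  exact h hg

theorem map_H {g : ↥(twistedF4 K (2 ^ m))} (hg : g ∈ (full hK hφ).T) : tw K k (2 ^ m) g ∈ A.T := by
  obtain ⟨s, t, rfl⟩ := (mem_T_iff hK hφ g).1 hg
  rw [A_T hA]
  unfold tcS
  rw [tw_T]
  have h0 : ∀ x : Kˣ, algebraMap K k (x : K) ≠ 0 := fun x => by
    rw [Ne, map_eq_zero]; exact x.ne_zero
  exact mul_mem (mul_mem (mul_mem (hc_mem _ _ (h0 _)) (hc_mem _ _ (h0 _))) (hc_mem _ _ (h0 _))) (hc_mem _ _ (h0 _))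

/-! ### the reflections -/

omit hA in
theorem glmap_nG' (r : ℕ) : Matrix.GeneralLinearGroup.map (algebraMap K k) (TwF4.Rel.nG K r) = TwF4.Rel.nG k r := by
  unfold TwF4.Rel.nG
  simp only [map_mul, X_eq_xG, glmap_xG, map_one]

omit hA in
theorem tw_n1 : ((tw K k (2 ^ m) (full hK hφ).n1 : ↥(chevF4.group k)) : GL chevF4.Idx k) = TwF4.Rel.n1 k := by
  show Matrix.GeneralLinearGroup.map (algebraMap K k) (TwF4.Rel.n1 K) = _
  unfold TwF4.Rel.n1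
  simp only [map_mul, glmap_nG']

omit hA in
theorem tw_n2 : ((tw K k (2 ^ m) (full hK hφ).n2 : ↥(chevF4.group k)) : GL chevF4.Idx k) = TwF4.Rel.n2 k := by
  show Matrix.GeneralLinearGroup.map (algebraMap K k) (TwF4.Rel.n2 K) = _
  unfold TwF4.Rel.n2
  simp only [map_mul, glmap_nG']

omit hA in
/-- coroot elements over `k` as torus elements -/
theorem hc_eq_T (i : Fin 4) (c : kˣ) :
    ((hc Nodes.KindF.isType i (c : k) : ↥(chevF4.group k)) : GL chevF4.Idx k) = T (Pi.mulSingle i c) := by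
  have h1 : ((hc Nodes.KindF.isType i (c : k) : ↥(chevF4.group k)) : GL chevF4.Idx k) =
      Elts.hG Nodes.KindF.isType.inList (chevF4.simple (i : ℕ)) (c : k) := rfl
  have h2 : chevF4.simple (i : ℕ) < 48 := simple_lt48 i
  rw [h1, ← T_hc h2 c]
  congr 1
  funext l
  show c ^ (F4NTab.co (chevF4.simple (i : ℕ)) l.val) = _
  have h3 : F4NTab.co (chevF4.simple (i : ℕ)) l.val = if l = i then 1 else 0 := co_simple i l
  rw [h3]
  by_cases h : l = i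
  · subst h; simp
  · rw [if_neg h, Pi.mulSingle_eq_of_ne h]; simp

theorem n1_inv_hh (i : Fin 4) (hi : i = 0 ∨ i = 3) (c : kˣ) :
    (tw K k (2 ^ m) (full hK hφ).n1)⁻¹ * A.hh i c * tw K k (2 ^ m) (full hK hφ).n1 = A.hh i c⁻¹ := by
  have h1 : (full hK hφ).n1⁻¹ = (full hK hφ).n1 := inv_eq_of_mul_eq_one_left (full hK hφ).n1_sq
  rw [← map_inv, h1]
  have h2 : tw K k (2 ^ m) (full hK hφ).n1 * A.hh i c * (tw K k (2 ^ m) (full hK hφ).n1)⁻¹ = A.hh i c⁻¹ := by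
    rw [A_hh hA, A_hh hA]
    apply Subtype.ext
    rw [Subgroup.coe_mul, Subgroup.coe_mul, Subgroup.coe_inv, tw_n1, hc_eq_T, hc_eq_T]
    have e : (Pi.mulSingle i c : Fin 4 → kˣ) = ![(Pi.mulSingle i c : Fin 4 → kˣ) 0, (Pi.mulSingle i c : Fin 4 → kˣ) 1,
        (Pi.mulSingle i c : Fin 4 → kˣ) 2, (Pi.mulSingle i c : Fin 4 → kˣ) 3] := by
      funext l; fin_cases l <;> rfl
    rw [e, n1_conj_T]
    congr 1
    funext l
    rcases hi with rfl | rfl <;> fin_cases l <;> simp [Pi.mulSingle, Function.update]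
  rwa [← map_inv, h1] at h2

theorem n2_inv_hh (i : Fin 4) (hi : i = 1 ∨ i = 2) (c : kˣ) :
    (tw K k (2 ^ m) (full hK hφ).n2)⁻¹ * A.hh i c * tw K k (2 ^ m) (full hK hφ).n2 = A.hh i c⁻¹ := by
  have h1 : (full hK hφ).n2⁻¹ = (full hK hφ).n2 := inv_eq_of_mul_eq_one_left (full hK hφ).n2_sq
  rw [← map_inv, h1]
  have h2 : tw K k (2 ^ m) (full hK hφ).n2 * A.hh i c * (tw K k (2 ^ m) (full hK hφ).n2)⁻¹ = A.hh i c⁻¹ := by
    rw [A_hh hA, A_hh hA]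
    apply Subtype.ext
    rw [Subgroup.coe_mul, Subgroup.coe_mul, Subgroup.coe_inv, tw_n2, hc_eq_T, hc_eq_T]
    have e : (Pi.mulSingle i c : Fin 4 → kˣ) = ![(Pi.mulSingle i c : Fin 4 → kˣ) 0, (Pi.mulSingle i c : Fin 4 → kˣ) 1,
        (Pi.mulSingle i c : Fin 4 → kˣ) 2, (Pi.mulSingle i c : Fin 4 → kˣ) 3] := by
      funext l; fin_cases l <;> rfl
    rw [e, n2_conj_T]
    congr 1
    funext l
    rcases hi with rfl | rfl <;> fin_cases l <;> simp [Pi.mulSingle, Function.update]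
  rwa [← map_inv, h1] at h2

/-- the orbits of the nodes -/
def orbF : Fin 4 → Fin 2 := ![0, 1, 1, 0]

/-- the exponents of the nodes -/
def expF (m : ℕ) : Fin 4 → ℕ := ![2 ^ m, 2 ^ m, 1, 1]

theorem map_hh (i : Fin 4) (j : Fin 2) (b : Kˣ) :
    A.Δ i (tw K k (2 ^ m) (hhS hφ j b)) = if orbF i = j then algebraMap K k b ^ expF m i else 1 := by
  revert j
  refine Fin.forall_fin_two.2 ⟨?_, ?_⟩
  · have h := Δ_tw_T hA (T_tc_mem hφ.pos.ne' (pow_e hφ) (1 : Kˣ) b) i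
    refine Eq.trans h ?_
    unfold tc orbF expF
    fin_cases i <;> simp
  · have h := Δ_tw_T hA (T_tc_mem hφ.pos.ne' (pow_e hφ) b (1 : Kˣ)) i
    refine Eq.trans h ?_
    unfold tc orbF expF
    fin_cases i <;> simp

theorem n1_mem_Lv {P : Fin 4 → Prop} (h0 : P 0) (h3 : P 3) : tw K k (2 ^ m) (full hK hφ).n1 ∈ Lv A P := by
  rw [(full hK hφ).n1_word, map_mul, map_mul]
  exact mul_mem (mul_mem (ro_mem_Lv hA hφ h0 h3 1).1 (ro_mem_Lv hA hφ h0 h3 1).2) (ro_mem_Lv hA hφ h0 h3 1).1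

theorem n2_mem_Lv {P : Fin 4 → Prop} (h1 : P 1) (h2 : P 2) : tw K k (2 ^ m) (full hK hφ).n2 ∈ Lv A P := by
  rw [(full hK hφ).n2_word, map_mul, map_mul]
  exact mul_mem (mul_mem (re_mem_Lv hA hφ h1 h2 0 1).1 (re_mem_Lv hA hφ h1 h2 1 1).2) (re_mem_Lv hA hφ h1 h2 1 0).1

theorem map_n [Infinite k] (i : Fin 4) (j : Fin 2) :
    A.Δ i (tw K k (2 ^ m) (nS hK hφ j)) = if orbF i = j then 0 else 1 := by
  revert j
  refine Fin.forall_fin_two.2 ⟨?_, ?_⟩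
  · show A.Δ i (tw K k (2 ^ m) (full hK hφ).n1) = _
    by_cases hi : i = 0 ∨ i = 3
    · rw [if_pos (by rcases hi with rfl | rfl <;> rfl)]
      exact Δ_zero_of A (n1_inv_hh hK hφ hA i hi)
    · have h1 : orbF i ≠ 0 := by
        revert i; decide
      rw [if_neg h1]
      have h2 := Δ_one_of A (i := i) (A := fun j => j = 0 ∨ j = 3) (fun j hj hji => hi (hji ▸ hj))
        (n1_mem_Lv hK hφ hA (Or.inl rfl) (Or.inr rfl)) 1
      rw [one_mul, A.Δ_one] at h2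
      exact h2
  · show A.Δ i (tw K k (2 ^ m) (full hK hφ).n2) = _
    by_cases hi : i = 1 ∨ i = 2
    · rw [if_pos (by rcases hi with rfl | rfl <;> rfl)]
      exact Δ_zero_of A (n2_inv_hh hK hφ hA i hi)
    · have h1 : orbF i ≠ 1 := by
        revert i; decide
      rw [if_neg h1]
      have h2 := Δ_one_of A (i := i) (A := fun j => j = 1 ∨ j = 2) (fun j hj hji => hi (hji ▸ hj))
        (n2_mem_Lv hK hφ hA (Or.inl rfl) (Or.inr rfl)) 1
      rw [one_mul, A.Δ_one] at h2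
      exact h2

omit hA in
theorem zz_inv2 (r : ℕ) (s : k) : (zz Nodes.KindF.isType r s)⁻¹ = zz Nodes.KindF.isType r s := by
  rw [zz_inv, CharTwo.neg_eq]

theorem τ_ro (a : ZMod 8) (t : K) : A.τ (tw K k (2 ^ m) (ro hφ a t)) = tw K k (2 ^ m) (ro hφ (a + 4) t)⁻¹ := by
  obtain ⟨n1, n2, -⟩ := tabN a
  obtain ⟨l1, l2, -⟩ := lt48 a
  rw [map_inv, tw_ro, tw_ro, A.τ_mul, τ_zz hA l1, τ_zz hA l2, mul_inv_rev, zz_inv2, zz_inv2, n1, n2]

theorem τ_re (a : ZMod 8) (p u : K) : A.τ (tw K k (2 ^ m) (re hφ a p u)) = tw K k (2 ^ m) (re hφ (a + 4) p u)⁻¹ := by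
  obtain ⟨-, -, n1, n2, n3, n4⟩ := tabN a
  obtain ⟨-, -, l1, l2, l3, l4⟩ := lt48 a
  rw [map_inv, tw_re, tw_re, A.τ_mul, A.τ_mul, A.τ_mul, τ_zz hA l1, τ_zz hA l2, τ_zz hA l3, τ_zz hA l4, mul_inv_rev,
    mul_inv_rev, mul_inv_rev, zz_inv2, zz_inv2, zz_inv2, zz_inv2, n1, n2, n3, n4]

include hK hφ in
theorem map_τ : ∀ g ∈ (tw K k (2 ^ m)).range, A.τ g ∈ (tw K k (2 ^ m)).range := by
  rintro _ ⟨g, rfl⟩
  have hg : g ∈ ⨆ i, (full hK hφ).R.X i := by rw [(full hK hφ).R.gen]; trivial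
  refine Subgroup.iSup_induction (S := (full hK hφ).R.X) (C := fun g => A.τ (tw K k (2 ^ m) g) ∈ (tw K k (2 ^ m)).range)
    hg ?_ ?_ ?_
  · intro i x hx
    rcases od_or_ev i with ⟨a, rfl⟩ | ⟨a, rfl⟩
    · obtain ⟨t, rfl⟩ := ((full hK hφ).mem_odd a x).1 hx
      exact ⟨_, (τ_ro hφ hA a t).symm⟩
    · obtain ⟨p, u, rfl⟩ := ((full hK hφ).mem_even a x).1 hx
      exact ⟨_, (τ_re hφ hA a p u).symm⟩
  · rw [map_one, A.τ_one]; exact one_mem _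
  · intro x y hx hy
    rw [map_mul, A.τ_mul]
    exact mul_mem hy hx

/-- **`tw` is a map of systems** -/
theorem map_tw [Infinite k] : (sysT hK hφ).Map A (tw K k (2 ^ m)) orbF (expF m) where
  U _ hu := map_U hK hφ hA hu
  Um _ hu := map_Um hK hφ hA hu
  H _ hh := map_H hK hφ hA hh
  hh i j b := map_hh hφ hA i j b
  n i j := map_n hK hφ hA i j
  e_pos := by
    intro i
    unfold expF
    fin_cases i <;> simp
  τ := map_τ hK hφ hA

/-- **the low property** -/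
theorem low_tw_F4 [Infinite k] (hm : 1 ≤ m) (A' : DatR (Fin 4) (PR chevF4) k ↥(chevF4.group k))
    (hA' : A'.toGDat = gdat Nodes.KindF.isType k) (hq : A'.qq = qF m) (F : ↥(chevF4.group k) → k) (hF : F ∈ A'.L)
    (h1 : ∀ u ∈ (sysT hK hφ).U.map (tw K k (2 ^ m)), ∀ g, F (g * u) = F g) (n : ℕ) (hlow : ∀ m < n, A'.H m F = 0) :
    A'.H n F ∈ A'.K := by
  refine low_split_tw A' (Fq := K) (P := (sysT hK hφ).U.map (tw K k (2 ^ m))) (Q₁ := 2 ^ m) (Q₂ := 2 ^ (m + 1)) ?_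
    (fun c => ?_) F hF h1 n hlow
  · rw [hK, ← pow_add]
    congr 1
    ring
  · rw [hA', hq]
    refine exists_cls hm hφ (fun a ha t => ?_) (fun a ha p u => ?_) c
    · have h2 : (full hK hφ).o (((a : ℤ)) : ZMod 8) t ∈ (full hK hφ).XZ (2 * a + 1) := (full hK hφ).o_mem a t
      have h3 := mem_J h2 (a := 1) (b := 8) (by omega) (by omega)
      rw [Int.cast_natCast] at h3
      exact h3
    · have h2 : (full hK hφ).e ((((a + 1 : ℕ) : ℤ)) : ZMod 8) p u ∈ (full hK hφ).XZ (2 * ((a + 1 : ℕ) : ℤ)) :=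
        (full hK hφ).e_mem ((a + 1 : ℕ) : ℤ) p u
      have h3 := mem_J h2 (a := 1) (b := 8) (by omega) (by omega)
      rw [Int.cast_natCast] at h3
      exact h3

end inst

section pgr

variable {K : Type*} [Field K] [Fintype K] [CharP K 2] {φ : K →+* K} {m : ℕ}
  (hK : Fintype.card K = 2 ^ (2 * m + 1)) (hφ : Rln φ (2 ^ m))

theorem isPGroup_XZ (k : ℤ) : IsPGroup 2 ↥((full hK hφ).XZ k) := by
  rintro ⟨g, hg⟩
  refine ⟨2, ?_⟩
  apply Subtype.ext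
  obtain ⟨a, h | h⟩ := Int.even_or_odd' k
  · rw [h] at hg
    obtain ⟨p, u, e⟩ := ((full hK hφ).mem_XZ_even a _).1 hg
    have h1 : g * g = (full hK hφ).e (a : ZMod 8) 0 (p * φ p) := by
      rw [← e, (full hK hφ).e_mul, CharTwo.add_self_eq_zero p, CharTwo.add_self_eq_zero u, zero_add]
    have h2 : (g * g) * (g * g) = 1 := by
      rw [h1, (full hK hφ).e_mul, CharTwo.add_self_eq_zero, CharTwo.add_self_eq_zero, zero_mul, add_zero]
      exact (full hK hφ).e_zero _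
    show g ^ 4 = 1
    rw [show (4 : ℕ) = 2 + 2 from rfl, pow_add, pow_two]
    exact h2
  · rw [h] at hg
    obtain ⟨t, e⟩ := ((full hK hφ).mem_XZ_odd a _).1 hg
    have h1 : g * g = 1 := by
      rw [← e, (full hK hφ).o_add, CharTwo.add_self_eq_zero, (full hK hφ).o_zero]
    show g ^ 4 = 1
    rw [show (4 : ℕ) = 2 + 2 from rfl, pow_add, pow_two, h1, one_mul]

theorem isPGroup_U : IsPGroup 2 ↥(sysT hK hφ).U :=
  KFacts.TwF4.Arc.isPGroup_J (full hK hφ).zsys8 (isPGroup_XZ hK hφ) 8 1 8 (by norm_num) (by norm_num)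

theorem isPGroup_Um : IsPGroup 2 ↥(sysT hK hφ).Um :=
  KFacts.TwF4.Arc.isPGroup_J (full hK hφ).zsys8 (isPGroup_XZ hK hφ) 8 9 16 (by norm_num) (by norm_num)

end pgr

/-- every exponent is represented -/
theorem exists_lam {m : ℕ} (a : Fin 2 → ℕ) (ha : ∀ j, a j < 2 ^ (2 * m + 1)) : ∃ l : Fin 4 → ℕ,
    (l 0 < 2 ^ (m + 1) ∧ l 1 < 2 ^ (m + 1) ∧ l 2 < 2 ^ m ∧ l 3 < 2 ^ m) ∧
      a 0 = 2 ^ m * l 0 + l 3 ∧ a 1 = 2 ^ m * l 1 + l 2 := by
  have h1 : ∀ x < 2 ^ (2 * m + 1), x / 2 ^ m < 2 ^ (m + 1) := by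
    intro x hx
    rw [Nat.div_lt_iff_lt_mul (by positivity), ← pow_add]
    have : m + 1 + m = 2 * m + 1 := by ring
    rwa [this]
  have h2 : ∀ x : ℕ, x % 2 ^ m < 2 ^ m := fun x => Nat.mod_lt _ (by positivity)
  exact ⟨![a 0 / 2 ^ m, a 1 / 2 ^ m, a 1 % 2 ^ m, a 0 % 2 ^ m], ⟨h1 _ (ha 0), h1 _ (ha 1), h2 _, h2 _⟩,
    (Nat.div_add_mod (a 0) (2 ^ m)).symm, (Nat.div_add_mod (a 1) (2 ^ m)).symm⟩

end Cfsg.Agent.H203.TW
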